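import Cfsg.Agent.H236.S5O.Four
import Cfsg.Agent.H132.S5.CycChar

/-!
# S2274, orthogonal groups: spaces of the dimension of one block (cyclic Sylow subgroups)
-/

set_option autoImplicit false
set_option linter.unusedSectionVars false

universe u

namespace Cfsg.Agent.H236.S5O

open Cfsg.Agent.H533.T5 Cfsg.Agent.H132.S5 Cfsg.Agent.H106.MT Cfsg.Agent.H106.MB Cfsg.Agent.H28.T5Mid
open QuadraticMap Module Cfsg.Agent.LieClassical.OrthCore Cfsg.Agent.LieClassical.OrthTrans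
  Cfsg.Agent.ClassicalGeometry.OrthSemi Cfsg.Agent.ClassicalGeometry.OrthAut1
open Cfsg.Agent.LieClassical.OrthSimple (good_isSimpleGroup)
open Cfsg.Agent.H862.T5.OBase Cfsg.Agent.H862.T5.OFrame Cfsg.Agent.H862.T5.OMain Cfsg.Agent.H862.T5.OFix
  Cfsg.Agent.H862.T5.OAA
open Cfsg.Agent.H957.T5V
open Cfsg.Agent.H208.Parity (ofO)

section io

variable {S : Type u} [Group S] [Finite S] {p : ℕ}

/-- **Inner against outer**, the automorphisms which occur. -/
theorem spair_io' (hAA : AAHyp.{u} p) (hRS : RSHyp.{u} p) (hp : p.Prime) [IsSimpleGroup S] (hna : ¬ IsMulCommutative S)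
    {x : S} {d : MulAut S} (hx : orderOf x = p) (hd : orderOf d = p) (hdo : ¬ ∃ g, d = MulAut.conj g)
    (hsb : ∀ z : S, orderOf ((MulAut.conj z)⁻¹ * d) = p → SB ((MulAut.conj z)⁻¹ * d))
    (hfix : ∃ s : S, d (s * x * s⁻¹) = s * x * s⁻¹) : SPair p (Inn S) (MulAut.conj x) d := by
  have hinj := conj_injective_of_simple (S := S) hna
  have hI := conj_range_normal (S := S)
  obtain ⟨s, hs⟩ := hfix
  obtain ⟨z, hz⟩ : ∃ z, z = s * x * s⁻¹ := ⟨_, rfl⟩
  rw [← hz] at hs
  have hzp : orderOf z = p := by rw [hz, orderOf_cj, hx]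
  have hcz : MulAut.conj s * MulAut.conj x * (MulAut.conj s)⁻¹ = MulAut.conj z := by
    rw [hz, map_mul, map_mul, map_inv]
  have hcomm : Commute (MulAut.conj z) d := by
    apply MulEquiv.ext
    intro a
    rw [MulAut.mul_apply, MulAut.mul_apply, MulAut.conj_apply, MulAut.conj_apply, map_mul, map_mul, map_inv, hs]
  have hcommi : Commute (MulAut.conj z)⁻¹ d := hcomm.inv_left
  have hzo : orderOf (MulAut.conj z) = p := by rw [orderOf_injective _ hinj, hzp]
  obtain ⟨h, hh⟩ : ∃ h, h = (MulAut.conj z)⁻¹ * d := ⟨_, rfl⟩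
  have hho : ¬ ∃ g, h = MulAut.conj g := by
    rintro ⟨g, hg⟩
    apply hdo
    refine ⟨z * g, ?_⟩
    rw [map_mul, ← hg, hh, mul_inv_cancel_left]
  have hh1 : h ^ p = 1 := by
    rw [hh, hcommi.mul_pow, inv_pow, ← hzo, pow_orderOf_eq_one, hzo, ← hd, pow_orderOf_eq_one, inv_one, one_mul]
  have hhp : orderOf h = p :=
    orderOf_eq_prime_iff (hp := ⟨hp⟩) |>.2 ⟨hh1, fun h1 => hho ⟨1, by rw [h1, map_one]⟩⟩
  have hSB : SB h := by
    rw [hh]
    apply hsb
    rw [← hh, hhp]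
  have hhz : h z = z := by
    rw [hh, MulAut.mul_apply, hs, ← map_inv, MulAut.conj_apply]
    group
  -- the centraliser of `h` in `Inn S`
  have hcenth : ∀ g : S, MulAut.conj g ∈ Subgroup.centralizer {h} ↔ h g = g := by
    intro g
    rw [Subgroup.mem_centralizer_singleton_iff]
    constructor
    · intro h6
      apply hinj
      have h7 : h * MulAut.conj g * h⁻¹ = MulAut.conj (h g) := by
        apply MulEquiv.ext
        intro a
        rw [MulAut.mul_apply, MulAut.mul_apply, MulAut.conj_apply, MulAut.conj_apply, map_mul, map_mul, map_inv,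
          MulAut.apply_inv_self]
      rw [← h7, ← h6, mul_inv_cancel_right]
    · intro h6
      apply MulEquiv.ext
      intro a
      rw [MulAut.mul_apply, MulAut.mul_apply, MulAut.conj_apply, MulAut.conj_apply, map_mul, map_mul, map_inv, h6]
  have hcommh : Commute (MulAut.conj z) h := by
    rw [hh]
    exact (Commute.refl _).inv_right.mul_right hcomm
  refine SPair.conj_left (s := MulAut.conj s) ⟨s, rfl⟩ ?_
  rw [hcz]
  refine spair_of_aligned hAA hRS hp (R := Inn S ⊓ Subgroup.centralizer {h}) inf_le_left hzo ?_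
    (s := 1) (one_mem _) (h := h) hcommh ?_ ⟨1, by rw [pow_one, hh1]⟩ (by rw [hh]; group) ?_
  · intro r hr
    rw [Subgroup.mem_inf, Subgroup.mem_centralizer_singleton_iff] at hr ⊢
    refine ⟨hI.conj_mem _ hr.1 _, ?_⟩
    have h1 : Commute h r := hr.2.symm
    exact ((hcommh.symm.mul_right h1).mul_right hcommh.symm.inv_right).symm.eq
  · intro r hr
    rw [Subgroup.mem_inf, Subgroup.mem_centralizer_singleton_iff] at hr
    exact hr.2
  · intro hsol
    refine not_solvable_sb hSB hhz (fun h1 => ?_) ?_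
    · rw [h1, orderOf_one] at hzp
      exact hp.one_lt.ne hzp
    · have h1 : (Subgroup.closure {y : S | ∃ r ∈ fixS h, y = r * z * r⁻¹}).map (MulAut.conj : S →* MulAut S) =
          Subgroup.closure {y : MulAut S | ∃ r ∈ Inn S ⊓ Subgroup.centralizer {h}, y = r * MulAut.conj z * r⁻¹} := by
        rw [MonoidHom.map_closure]
        congr 1
        ext y
        constructor
        · rintro ⟨_, ⟨r, hr, rfl⟩, rfl⟩
          exact ⟨MulAut.conj r, ⟨⟨r, rfl⟩, (hcenth r).2 hr⟩, by rw [map_mul, map_mul, map_inv]⟩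
        · rintro ⟨_, ⟨⟨r, rfl⟩, hr⟩, rfl⟩
          exact ⟨r * z * r⁻¹, ⟨r, (hcenth r).1 hr, rfl⟩, by rw [map_mul, map_mul, map_inv]⟩
      rw [← h1] at hsol
      exact Group.isSolvable_of_isSolvable_injective
        (f := ((Subgroup.closure {y : S | ∃ r ∈ fixS h, y = r * z * r⁻¹}).equivMapOfInjective _ hinj).toMonoidHom)
        (MulEquiv.injective _)

omit [Finite S] in
theorem sb_of_fn {d : MulAut S} (h : FN p d) : SB d := by
  obtain ⟨N, h1, h2, h3, h4, h5, h6⟩ := h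
  refine ⟨N, h4, fun y hy => ?_, h1, h2, fun y _ hyc => h6 y fun n hn => ?_⟩
  · rw [Subgroup.mem_normalizer_iff]
    intro n
    refine ⟨fun hn => h5 y hy n hn, fun hn => ?_⟩
    have hy' : d y⁻¹ = y⁻¹ := by rw [map_inv, hy]
    have h7 := h5 y⁻¹ hy' _ hn
    have h8 : y⁻¹ * (y * n * y⁻¹) * y⁻¹⁻¹ = n := by group
    rwa [h8] at h7
  · exact (Subgroup.mem_centralizer_iff.1 hyc n hn).symm

end io

variable {F V : Type} [Field F] [Fintype F] [AddCommGroup V] [Module F V] [FiniteDimensional F V]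
  {Q : QuadraticForm F V}

/-- two linear semisimilitudes -/
theorem sg_lin_lin {p : ℕ} (B : SBox.{0} p) [hp : Fact p.Prime] (hG : Good Q) (hp2 : p ≠ 2)
    (hcyc : ∀ S : Sylow p (P Q), IsCyclic ↥(S : Subgroup (P Q)))
    {X M : Gam Q} {μ c : F} (hX : IsSS Q (RingEquiv.refl F) μ X.1) (hXo : orderOf (Psi Q X) = p)
    (hM : IsSS Q (RingEquiv.refl F) c M.1) (hMo : orderOf (Psi Q M) = p) : SG Q p X M := by
  have := finP (Q := Q)
  have hodd := hp.out.odd_of_ne_two hp2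
  have := good_isSimpleGroup hG
  have hcinj := conj_injective_P hG
  obtain ⟨x0, hx0⟩ := H885.FC.Main.inner_of_lin hG hX hodd hXo
  obtain ⟨y0, hy0⟩ := H885.FC.Main.inner_of_lin hG hM hodd hMo
  rw [hx0, orderOf_injective _ hcinj] at hXo
  rw [hy0, orderOf_injective _ hcinj] at hMo
  let S : Sylow p (P Q) := default
  have h := spair_of_cyclic B.aa B.rs (H885.FC.Orth.not_comm_P hG) S (hcyc S) hXo hMo
  have h2 := h.of_injective (MulAut.conj : P Q →* MulAut (P Q)) hcinj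
  show SPair p _ _ _
  rw [hx0, hy0]
  refine h2.mono ?_
  rintro _ ⟨r, -, rfl⟩
  exact ⟨r, rfl⟩

/-- a linear against a nonlinear semisimilitude -/
theorem sg_lin_nl {p : ℕ} (B : SBox.{0} p) [hp : Fact p.Prime] (hG : Good Q) {m : ℕ} (hm : 3 ≤ m)
    (hd : finrank F V = 2 * m) (hp2 : p ≠ 2) (hcyc : ∀ S : Sylow p (P Q), IsCyclic ↥(S : Subgroup (P Q)))
    {X M : Gam Q} {σ : F ≃+* F} {μ c : F} (hX : IsSS Q (RingEquiv.refl F) μ X.1) (hXo : orderOf (Psi Q X) = p)
    (hM : IsSS Q σ c M.1) (hσ : σ ≠ 1) (hMo : orderOf (Psi Q M) = p) : SG Q p X M := by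
  have := finP (Q := Q)
  have hodd := hp.out.odd_of_ne_two hp2
  have := good_isSimpleGroup hG
  have hcinj := conj_injective_P hG
  obtain ⟨x0, hx0⟩ := H885.FC.Main.inner_of_lin hG hX hodd hXo
  have hx0o : orderOf x0 = p := by
    rw [hx0, orderOf_injective _ hcinj] at hXo
    exact hXo
  have hdvd : p ∣ Nat.card (P Q) := by rw [← hx0o]; exact orderOf_dvd_natCard _
  have hMp : Psi Q M ^ p = 1 := by rw [← hMo, pow_orderOf_eq_one]
  have hMo' : ¬ ∃ g, Psi Q M = MulAut.conj g := by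
    rintro ⟨g, hg⟩
    exact not_inner_of_nl hG hM hσ g hg
  show SPair p _ _ _
  rw [hx0]
  refine spair_io' B.aa B.rs hp.out (H885.FC.Orth.not_comm_P hG) hx0o hMo hMo' ?_ ?_
  · intro z hz
    obtain ⟨⟨w, hw⟩, rfl⟩ := QuotientGroup.mk_surjective z
    have e : (MulAut.conj (QuotientGroup.mk (⟨w, hw⟩ : E Q) : P Q))⁻¹ * Psi Q M =
        Psi Q ((ofO w (E_le_O hw))⁻¹ * M) := by rw [map_mul, map_inv, Psi_E hw]
    rw [e] at hz ⊢
    obtain ⟨c', hM'⟩ : ∃ c', IsSS Q σ c' ((ofO w (E_le_O hw))⁻¹ * M).1 :=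
      ⟨_, (isSS_ofO ((O Q).inv_mem (E_le_O hw))).mul hM⟩
    exact sb_of_fn (fn_gam hG hm hd hM' hσ hp.out hp2 (by rw [← hz, pow_orderOf_eq_one]) hdvd)
  · obtain ⟨N, hN1, hN2, hN3, hN4, hN5, hN6⟩ := fn_gam hG hm hd hM hσ hp.out hp2 hMp hdvd
    have : Finite N := inferInstance
    obtain ⟨⟨c0, hc0N⟩, hc0⟩ := exists_prime_orderOf_dvd_card' (G := N) p hN3
    rw [Subgroup.orderOf_mk] at hc0
    let S : Sylow p (P Q) := default
    obtain ⟨s, j, hsj⟩ := exists_conj_of_cyclic S (hcyc S) hx0o hc0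
    refine ⟨s⁻¹, ?_⟩
    have h1 : s⁻¹ * x0 * s⁻¹⁻¹ = c0 ^ j := by
      rw [← hsj, conj_zpow]
      group
    rw [h1]
    exact hN4 _ (Subgroup.zpow_mem _ hc0N j)

/-- the pair property in a space of the dimension of a block -/
theorem sg_block {p : ℕ} (B : SBox.{0} p) [hp : Fact p.Prime]
    (hG : Good Q) {m : ℕ} (hm : 3 ≤ m) (hd : finrank F V = 2 * m) (hp2 : p ≠ 2) (hpF : (p : F) ≠ 0)
    (hc : 2 * m = if Even (orderOf (Fintype.card F : ZMod p)) then orderOf (Fintype.card F : ZMod p) else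
      2 * orderOf (Fintype.card F : ZMod p)) {X Y : Gam Q} {μ : F} (hX : IsSS Q (RingEquiv.refl F) μ X.1)
    (hXo : orderOf (Psi Q X) = p) (hYo : orderOf (Psi Q Y) = p) : SG Q p X Y := by
  have hcyc := cyclic_sylow hG hp2 hpF hc hd
  obtain ⟨σ, c, hY⟩ := Y.2
  by_cases hσ : σ = 1
  · subst hσ
    exact sg_lin_lin B hG hp2 hcyc hX hXo hY hYo
  · exact sg_lin_nl B hG hm hd hp2 hcyc hX hXo hY hσ hYo

end Cfsg.Agent.H236.S5O
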