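import Cfsg.Agent.H132.S5.Main
import Cfsg.Agent.H862.T5.ORow

/-!
# S2274, orthogonal groups in cross characteristic: correspondences

* `spair_of_corr` : the strong pair property along two homomorphisms `φ`, `ψ` with `ker φ ≤ ker ψ`;
* `spair_section` : sections of smaller order;
* `SBelow.down` : universe change.
-/

set_option autoImplicit false

universe u v

namespace Cfsg.Agent.H236.S5O

open Cfsg.Agent.H533.T5 Cfsg.Agent.H132.S5 Cfsg.Agent.H106.MT Cfsg.Agent.H106.MB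

section corr

variable {M₀ G₁ G₂ : Type*} [Group M₀] [Group G₁] [Group G₂] {p : ℕ}

/-- The induced homomorphism on the range. -/
noncomputable def lft (φ : M₀ →* G₁) (ψ : M₀ →* G₂) (hk : φ.ker ≤ ψ.ker) : φ.range →* G₂ :=
  φ.rangeRestrict.liftOfSurjective φ.rangeRestrict_surjective ⟨ψ, by rwa [MonoidHom.ker_rangeRestrict]⟩

theorem lft_apply (φ : M₀ →* G₁) (ψ : M₀ →* G₂) (hk : φ.ker ≤ ψ.ker) (x : M₀) :
    lft φ ψ hk ⟨φ x, x, rfl⟩ = ψ x :=
  MonoidHom.liftOfRightInverse_comp_apply _ _ _ _ x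

/-- **Correspondences.** -/
theorem spair_of_corr (hp : p.Prime) (φ : M₀ →* G₁) (ψ : M₀ →* G₂) (hk : φ.ker ≤ ψ.ker) {S₀ : Subgroup M₀}
    {T : Subgroup G₂} (hT : T ≤ S₀.map ψ) {c d : M₀} (h : SPair p T (ψ c) (ψ d)) :
    SPair p (S₀.map φ) (φ c) (φ d) := by
  refine SPair.of_section hp (M := φ.range) (c := ⟨φ c, c, rfl⟩) (d := ⟨φ d, d, rfl⟩) (lft φ ψ hk) (T := T) ?_ ?_
  · intro t ht
    obtain ⟨s, hs, rfl⟩ := hT ht
    exact ⟨⟨φ s, s, rfl⟩, ⟨s, hs, rfl⟩, lft_apply φ ψ hk s⟩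
  · rw [lft_apply, lft_apply]
    exact h

theorem card_le_of_corr (φ : M₀ →* G₁) (ψ : M₀ →* G₂) (hk : φ.ker ≤ ψ.ker) {S₀ : Subgroup M₀}
    {T : Subgroup G₂} (hT : T ≤ S₀.map ψ) [Finite ↥(S₀.map φ)] : Nat.card T ≤ Nat.card ↥(S₀.map φ) := by
  choose f hf using fun t : T => hT t.2
  refine Nat.card_le_card_of_injective (fun t : T => (⟨φ (f t), f t, (hf t).1, rfl⟩ : ↥(S₀.map φ))) ?_
  intro a b hab
  have h1 : φ (f a) = φ (f b) := congrArg Subtype.val hab
  have h2 : (f a)⁻¹ * f b ∈ ψ.ker := by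
    apply hk
    rw [MonoidHom.mem_ker, map_mul, map_inv, h1, inv_mul_cancel]
  rw [MonoidHom.mem_ker, map_mul, map_inv, inv_mul_eq_one, (hf a).2, (hf b).2] at h2
  exact Subtype.ext h2

end corr

/-- A submonoid of a finite group is a subgroup. -/
def sg {G : Type*} [Group G] [Finite G] (P : G → Prop) (h1 : P 1) (hm : ∀ a b, P a → P b → P (a * b)) :
    Subgroup G where
  carrier := {g | P g}
  mul_mem' {a b} ha hb := hm a b ha hb
  one_mem' := h1
  inv_mem' {a} ha := by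
    have hpow : ∀ n : ℕ, P (a ^ n) := by
      intro n
      induction n with
      | zero => rw [pow_zero]; exact h1
      | succ n ih => rw [pow_succ]; exact hm _ _ ih ha
    have h2 : a⁻¹ = a ^ (orderOf a - 1) := by
      rw [inv_eq_iff_mul_eq_one, ← pow_succ', Nat.sub_add_cancel (orderOf_pos a), pow_orderOf_eq_one]
    show P a⁻¹
    rw [h2]
    exact hpow _

theorem mem_sg {G : Type*} [Group G] [Finite G] {P : G → Prop} {h1 : P 1} {hm : ∀ a b, P a → P b → P (a * b)} {g : G} :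
    g ∈ sg P h1 hm ↔ P g := Iff.rfl

section sect

variable {S : Type u} [Group S] [Finite S] [IsSimpleGroup S] {p : ℕ}

/-- **Sections**: `A` acts on `S` (through `φ`), `H` on the smaller simple group `L` (through `ψ`), `Rel` is a
correspondence between `A` and `H`. -/
theorem spair_section (hp : p.Prime) (hna : ¬ IsMulCommutative S) {L : Type u} [Group L] (hL : IsSimpleGroup L)
    (hLna : ¬ IsMulCommutative L) [Finite L] {A H : Type*} [Group A] [Group H] [Finite A] [Finite H]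
    (φ : A →* MulAut S) (ψ : H →* MulAut L) (Rel : A → H → Prop) (h1 : Rel 1 1)
    (hm : ∀ a b h k, Rel a h → Rel b k → Rel (a * b) (h * k))
    (hker : ∀ a h, Rel a h → φ a = 1 → ψ h = 1)
    (W : A → Prop) (hW1 : W 1) (hWm : ∀ a b, W a → W b → W (a * b)) (hWφ : ∀ a b, W a → φ a = φ b → W b)
    (hlift : ∀ l : L, ∃ a h, Rel a h ∧ W a ∧ φ a ∈ Inn S ∧ ψ h = MulAut.conj l)
    (hne : ∃ a, φ a ∈ Inn S ∧ ¬ W a) (hlt : SBelow.{u} p (Nat.card S)) {a b : A} {h k : H}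
    (hah : Rel a h) (hbk : Rel b k) (hh : orderOf (ψ h) = p) (hk : orderOf (ψ k) = p) :
    SPair p (Inn S) (φ a) (φ b) := by
  let M₀ : Subgroup (A × H) := sg (fun m => Rel m.1 m.2) h1 (fun x y hx hy => hm _ _ _ _ hx hy)
  let Φ : M₀ →* MulAut S := φ.comp ((MonoidHom.fst A H).comp M₀.subtype)
  let Ψ : M₀ →* MulAut L := ψ.comp ((MonoidHom.snd A H).comp M₀.subtype)
  have hkk : Φ.ker ≤ Ψ.ker := by
    rintro ⟨⟨x, y⟩, hxy⟩ h2
    exact hker x y hxy h2
  let S₀ : Subgroup M₀ := sg (fun m => W m.1.1 ∧ φ m.1.1 ∈ Inn S) ⟨hW1, by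
    show φ 1 ∈ _
    rw [map_one]; exact one_mem _⟩ (fun x y hx hy => ⟨hWm _ _ hx.1 hy.1, by
      show φ (x.1.1 * y.1.1) ∈ _
      rw [map_mul]
      exact mul_mem hx.2 hy.2⟩)
  have hT : Inn L ≤ S₀.map Ψ := by
    rintro _ ⟨l, rfl⟩
    obtain ⟨x, y, hxy, hx, hxi, hy⟩ := hlift l
    exact ⟨⟨⟨x, y⟩, hxy⟩, ⟨hx, hxi⟩, hy⟩
  have hfin : Finite (MulAut S) := Finite.of_injective (fun f => (f : S → S)) DFunLike.coe_injective
  have hinj := conj_injective_of_simple (S := S) hna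
  have hinjL := conj_injective_of_simple (S := L) hLna
  have hle : S₀.map Φ ≤ Inn S := by
    rintro _ ⟨x, hx, rfl⟩
    exact hx.2
  have hlt2 : S₀.map Φ < Inn S := by
    refine lt_of_le_of_ne hle fun h2 => ?_
    obtain ⟨x, hx, hxW⟩ := hne
    rw [← h2] at hx
    obtain ⟨y, hy, hyx⟩ := hx
    exact hxW (hWφ _ _ hy.1 hyx)
  have hcard : Nat.card L < Nat.card S := by
    have e1 : Nat.card L = Nat.card (Inn L) := Nat.card_congr (MonoidHom.ofInjective hinjL).toEquiv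
    have e2 : Nat.card S = Nat.card (Inn S) := Nat.card_congr (MonoidHom.ofInjective hinj).toEquiv
    rw [e1, e2]
    refine (card_le_of_corr Φ Ψ hkk hT).trans_lt ?_
    exact Set.ncard_lt_ncard hlt2 (Set.toFinite _)
  have hrow := hlt L hL hLna hcard
  have h2 := hrow (ψ h) (ψ k) hh hk
  have h3 := spair_of_corr hp Φ Ψ hkk hT (c := ⟨⟨a, h⟩, hah⟩) (d := ⟨⟨b, k⟩, hbk⟩) h2
  exact h3.mono hle

end sect

theorem ulift_row {L : Type} [Group L] {p : ℕ} (h : SRow p (ULift.{u} L)) : SRow p L :=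
  Cfsg.Agent.H897.T5Sub.SRow.congr MulEquiv.ulift h

theorem down {p n : ℕ} (h : SBelow.{u} p n) : SBelow.{0} p n := by
  intro L _ _ hL hna hc
  have e : ULift.{u} L ≃* L := MulEquiv.ulift
  have h1 : IsSimpleGroup (ULift.{u} L) := e.isSimpleGroup
  refine ulift_row (h (ULift.{u} L) h1 (fun h2 => hna ?_) ?_)
  · refine ⟨⟨fun a b => e.symm.injective ?_⟩⟩
    rw [map_mul, map_mul]
    exact h2.is_comm.comm _ _
  · rwa [Nat.card_congr e.toEquiv]

end Cfsg.Agent.H236.S5O
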