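import Cfsg.Agent.H236.S5O.Geo
import Cfsg.Agent.H897.MeetPSL
import Cfsg.Agent.TwoFusion.SLTwoFacts

/-!
# S2274, orthogonal groups: the four-dimensional subspaces (`PSL₂(q)` and `PSL₂(q²)` sections)
-/

set_option autoImplicit false
set_option linter.unusedSectionVars false

namespace Cfsg.Agent.H236.S5O

open Cfsg.Agent.H533.T5 Cfsg.Agent.H132.S5 Cfsg.Agent.H106.MT Cfsg.Agent.H106.MB
open QuadraticMap Module Cfsg.Agent.LieClassical.OrthCore Cfsg.Agent.LieClassical.OrthTrans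
  Cfsg.Agent.ClassicalGeometry.OrthSemi Cfsg.Agent.ClassicalGeometry.OrthAut1
open Cfsg.Agent.LieClassical.OrthSimple (good_isSimpleGroup)
open Cfsg.Agent.H862.T5.OBase Cfsg.Agent.H862.T5.OFrame Cfsg.Agent.H862.T5.OMain
open Cfsg.Agent.H957.T5V
open Cfsg.Agent.H208.Parity (ofO)
open Cfsg.Agent.H897.MeetPSL (rho rho_apply rho_injective smap smap_apply ind_smap exists_smap)
open Cfsg.Agent.ClassicalGeometry.AutPSL.Root Cfsg.Agent.ClassicalGeometry.AutPSL.Auto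
open Cfsg.Agent.H199.PslAut
open Cfsg.Agent.H903.SylSemi (Ind)

section psl

variable (K : Type) [Field K]

/-- `PSL₂` -/
abbrev L2 : Type := Matrix.ProjectiveSpecialLinearGroup (Fin 2) K

variable {K}

theorem finL2 [Finite K] : Finite (L2 K) := by
  unfold L2 Matrix.ProjectiveSpecialLinearGroup
  infer_instance

theorem not_comm_psl [Fintype K] (h3 : 3 < Fintype.card K) : ¬ IsMulCommutative (L2 K) := by
  intro h
  have h1 := Cfsg.Agent.TwoFusion.SLTwoFacts.commutator_eq_top h3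
  have h2 := Subgroup.map_commutator (⊤ : Subgroup (Matrix.SpecialLinearGroup (Fin 2) K)) ⊤
    (QuotientGroup.mk' (Subgroup.center (Matrix.SpecialLinearGroup (Fin 2) K)))
  have h4 : ⁅(⊤ : Subgroup (Matrix.SpecialLinearGroup (Fin 2) K)), ⊤⁆ = ⊤ := h1
  have h6 : (⊤ : Subgroup (Matrix.SpecialLinearGroup (Fin 2) K)).map
      (QuotientGroup.mk' (Subgroup.center (Matrix.SpecialLinearGroup (Fin 2) K))) = ⊤ :=
    Subgroup.map_top_of_surjective _ (QuotientGroup.mk'_surjective _)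
  rw [h4, h6] at h2
  have h5 : ⁅(⊤ : Subgroup (Matrix.SpecialLinearGroup (Fin 2) K ⧸
        Subgroup.center (Matrix.SpecialLinearGroup (Fin 2) K))),
      (⊤ : Subgroup (Matrix.SpecialLinearGroup (Fin 2) K ⧸
        Subgroup.center (Matrix.SpecialLinearGroup (Fin 2) K)))⁆ = ⊥ := by
    rw [Subgroup.commutator_eq_bot_iff_le_centralizer]
    intro x _
    rw [Subgroup.mem_centralizer_iff]
    intro y _
    exact h.is_comm.comm y x
  rw [h5] at h2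
  have := Cfsg.Agent.TwoFusion.SLTwoFacts.isSimpleGroup_psl h3
  exact bot_ne_top (α := Subgroup (L2 K)) h2.symm

/-- semilinear maps with the automorphisms which they induce -/
def HL (K : Type) [Field K] [Finite K] : Subgroup (Equiv.Perm (Fin 2 → K) × MulAut (L2 K)) :=
  haveI := finL2 (K := K)
  haveI : Finite (MulAut (L2 K)) := Finite.of_injective (fun f => (f : L2 K → L2 K)) DFunLike.coe_injective
  sg (fun m => (∃ θ : K ≃+* K, Semi θ m.1) ∧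
    Ind (pr : Matrix.SpecialLinearGroup (Fin 2) K →* L2 K) (rho 2 K) m.1 m.2)
    ⟨⟨1, Semi.one⟩, Ind.one _ _⟩ (fun _ _ ha hb => ⟨⟨_, ha.1.choose_spec.mul hb.1.choose_spec⟩, ha.2.mul hb.2⟩)

variable [Finite K]

theorem exists_HL {c : Equiv.Perm (Fin 2 → K)} {θ : K ≃+* K} (hc : Semi θ c) : ∃ h : HL K, h.1.1 = c := by
  obtain ⟨A, rfl⟩ := exists_smap (show Cfsg.Agent.H903.SylSemi.Semi K c θ from ⟨hc.add, hc.smul⟩)
  exact ⟨⟨(smap A θ, _), ⟨θ, hc⟩, ind_smap A θ⟩, rfl⟩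

theorem HL_scal {h : HL K} (hs : IsScal K h.1.1) : h.1.2 = 1 := by
  obtain ⟨a, ha⟩ := Cfsg.Agent.H957.T5Tr.exists_scal hs
  refine Ind.unique pr_surjective rho_injective h.2.2 ?_
  rw [ha]
  refine Cfsg.Agent.H957.T5Tr.ind_scal (fun s => ⟨fun u v => ?_, fun b v => ?_⟩) a
  · rw [rho_apply, rho_apply, rho_apply, Matrix.mulVec_add]
  · rw [rho_apply, rho_apply, Matrix.mulVec_smul]
    rfl

theorem scal_HL {h : HL K} (hs : h.1.2 = 1) : IsScal K h.1.1 := by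
  obtain ⟨⟨θ, hθ⟩, hy⟩ := h.2
  obtain ⟨A, hA⟩ := exists_smap (show Cfsg.Agent.H903.SylSemi.Semi K h.1.1 θ from ⟨hθ.add, hθ.smul⟩)
  rw [hs, hA] at hy
  have h1 : Psi 2 K A * phi 2 K θ = 1 := Ind.unique pr_surjective rho_injective (ind_smap A θ) hy
  obtain ⟨⟨u, rfl⟩, h2⟩ := Psi_phi_eq (le_refl 2) (g := A) (σ := θ) (τ := 1) (by rw [h1, map_one])
  rw [hA]
  refine ⟨u, fun v => ?_⟩
  rw [smap_apply, h2, Cfsg.Agent.H199.PslAut.coe_scal]
  change (Matrix.scalar (Fin 2) (u : K)).mulVec v = (u : K) • v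
  rw [Matrix.scalar_apply, Matrix.diagonal_const_mulVec]

/-- the second projection -/
def prL (K : Type) [Field K] [Finite K] : HL K →* MulAut (L2 K) := (MonoidHom.snd _ _).comp (HL K).subtype

theorem order_HL {p : ℕ} (hp : p.Prime) {h : HL K} (hp1 : IsScal K (h.1.1 ^ p)) (hn : ¬ IsScal K h.1.1) :
    orderOf (prL K h) = p := by
  have := Fact.mk hp
  apply orderOf_eq_prime
  · rw [← map_pow]
    exact HL_scal (h := h ^ p) hp1
  · intro h1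
    exact hn (scal_HL h1)

theorem toA_eq_rho {g : (Fin 2 → K) ≃ₗ[K] (Fin 2 → K)} (hg : LinearEquiv.det g = 1) :
    ∃ s : Matrix.SpecialLinearGroup (Fin 2) K, rho 2 K s = toA g := by
  have hd : (LinearMap.toMatrix' (g : (Fin 2 → K) →ₗ[K] (Fin 2 → K))).det = 1 := by
    rw [LinearMap.det_toMatrix', ← LinearEquiv.coe_det, hg, Units.val_one]
  refine ⟨⟨_, hd⟩, ?_⟩
  ext v : 1
  refine (rho_apply _ v).trans ?_
  change Matrix.mulVec (LinearMap.toMatrix' (g : (Fin 2 → K) →ₗ[K] (Fin 2 → K))) v = g v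
  rw [LinearMap.toMatrix'_mulVec]
  rfl

theorem rho_eq_toA (s : Matrix.SpecialLinearGroup (Fin 2) K) :
    ∃ g : (Fin 2 → K) ≃ₗ[K] (Fin 2 → K), LinearEquiv.det g = 1 ∧ rho 2 K s = toA g := by
  refine ⟨Matrix.SpecialLinearGroup.toLin' s, ?_, ?_⟩
  · apply Units.ext
    rw [LinearEquiv.coe_det, Units.val_one]
    show LinearMap.det (Matrix.toLin' (s : Matrix (Fin 2) (Fin 2) K)) = 1
    rw [LinearMap.det_toLin', s.2]
  · ext v : 1
    rfl

end psl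

variable {F V U : Type} [Field F] [Fintype F] [AddCommGroup V] [Module F V] [FiniteDimensional F V]
  [AddCommGroup U] [Module F U] [FiniteDimensional F U]
  {Q : QuadraticForm F V} {q : QuadraticForm F U} {j : U →ₗ[F] V}

/-- **`PSL₂` sections.** -/
theorem sg_psl {p : ℕ} (hp : p.Prime) (hG : Good Q) (hj : Emb Q q j) (hq : Nondeg q) (hyp : ∃ x y, Hyp q x y)
    (hlt : finrank F U < finrank F V) (hb : SBelow.{0} p (Nat.card (P Q)))
    {K : Type} [Field K] [Fintype K] (hK : 3 < Fintype.card K)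
    (R : Gam Q → Equiv.Perm (Fin 2 → K) → Prop) (h1 : R 1 1) (hm : ∀ a b c d, R a c → R b d → R (a * b) (c * d))
    (hs : ∀ (a : Gam Q) c (θ : K ≃+* K), Semi θ c → R a c → IsScal F a.1 → IsScal K c)
    (hl : ∀ g : (Fin 2 → K) ≃ₗ[K] (Fin 2 → K), LinearEquiv.det g = 1 → ∃ G, ∃ hG : G ∈ E Q,
      R (ofO G (E_le_O hG)) (toA g) ∧ ∀ u, G (j u) ∈ LinearMap.range j)
    {X Y : Gam Q} {c d : Equiv.Perm (Fin 2 → K)} {σ τ : K ≃+* K} (hc : Semi σ c) (hd : Semi τ d)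
    (hX : R X c) (hY : R Y d) (hXp : IsScal F (X.1 ^ p)) (hYp : IsScal F (Y.1 ^ p)) (hcn : ¬ IsScal K c)
    (hdn : ¬ IsScal K d) : SG Q p X Y := by
  have hfin := finL2 (K := K)
  have : Finite (MulAut (L2 K)) := Finite.of_injective (fun f => (f : L2 K → L2 K)) DFunLike.coe_injective
  have hpow : ∀ (n : ℕ) {X : Gam Q} {c : Equiv.Perm (Fin 2 → K)}, R X c → R (X ^ n) (c ^ n) := by
    intro n X c h
    induction n with
    | zero => exact h1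
    | succ n ih => rw [pow_succ, pow_succ]; exact hm _ _ _ _ ih h
  obtain ⟨h, hh⟩ := exists_HL hc
  obtain ⟨k, hk⟩ := exists_HL hd
  refine sg_section hp hG hj hq hyp hlt hb (L := L2 K) (Cfsg.Agent.TwoFusion.SLTwoFacts.isSimpleGroup_psl hK)
    (not_comm_psl hK) (prL K) (fun X h => R X h.1.1) h1
    (fun a b h k h1 h2 => hm _ _ _ _ h1 h2) ?_ ?_ (X := X) (Y := Y) (h := h) (k := k) (by rwa [hh]) (by rwa [hk]) ?_ ?_
  · intro a h hr ha
    obtain ⟨⟨θ, hθ⟩, -⟩ := h.2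
    exact HL_scal (hs a _ θ hθ hr ha)
  · intro l
    obtain ⟨s, rfl⟩ := pr_surjective l
    obtain ⟨g, hg, hgs⟩ := rho_eq_toA s
    obtain ⟨G, hGE, hR, hw⟩ := hl g hg
    refine ⟨G, hGE, ⟨(toA g, MulAut.conj (pr s)), ⟨1, semi_toA g⟩, ?_⟩, hR, hw, rfl⟩
    rw [← hgs]
    exact Ind.conj _ _ s
  · refine order_HL hp ?_ (by rwa [hh])
    rw [hh]
    exact hs _ _ _ (hc.pow p) (hpow p hX) hXp
  · refine order_HL hp ?_ (by rwa [hk])
    rw [hk]
    exact hs _ _ _ (hd.pow p) (hpow p hY) hYp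

section four

open Cfsg.Agent.H862.T5.OPlusFour

theorem hyp_detQ : ∃ x y, Hyp (detQ F) x y :=
  ⟨!![1, 0; 0, 0], !![0, 0; 0, 1], by rw [detQ_apply]; simp, by rw [detQ_apply]; simp, by
    rw [polar_detQ]; simp⟩

theorem sg_core {p : ℕ} (hp : p.Prime) (hG : Good Q) (hb : SBelow.{0} p (Nat.card (P Q))) (hF : 3 < Fintype.card F)
    (h7 : 7 ≤ finrank F V) {j : M2 F →ₗ[F] V} (he : Emb Q (detQ F) j)
    {X Y : Gam Q} {x' y' : Equiv.Perm (M2 F)} {c d : Equiv.Perm (Fin 2 → F)} {σ τ : F ≃+* F}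
    (hx : Cov j X.1 x') (hy : Cov j Y.1 y') (hc : Semi σ c) (hd : Semi τ d) (hxc : TR x' c) (hyd : TR y' d)
    (hxp : IsScal F (X.1 ^ p)) (hyp : IsScal F (Y.1 ^ p)) (hcn : ¬ IsScal F c) (hdn : ¬ IsScal F d) :
    SG Q p X Y := by
  have hj := he.injective nondeg_detQ
  refine sg_psl hp hG he nondeg_detQ hyp_detQ (by rw [finrank_M2]; omega) hb hF
    (fun X c => ∃ (x' : Equiv.Perm (M2 F)) (σ : F ≃+* F), Cov j X.1 x' ∧ Semi σ c ∧ TR x' c)
    ⟨1, 1, Cov.one, Semi.one, TR.one⟩ ?_ ?_ ?_ hc hd ⟨x', σ, hx, hc, hxc⟩ ⟨y', τ, hy, hd, hyd⟩ hxp hyp hcn hdn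
  · rintro a b c d ⟨x, σ, h1, h2, h3⟩ ⟨y, τ, h4, h5, h6⟩
    exact ⟨x * y, σ * τ, h1.mul h4, h2.mul h5, h3.mul h2 h6⟩
  · rintro a c θ - ⟨x, σ, h1, h2, h3⟩ hs
    exact h3.isScal h2 (h1.isScal hj hs)
  · intro g hg
    obtain ⟨G, hGE, hGj⟩ := lift_lm he hg
    exact ⟨G, hGE, ⟨toA (lm g), 1, hGj, semi_toA g, tr_lm g⟩, fun u => by rw [hGj]; exact ⟨_, rfl⟩⟩

theorem sg_of_fr4 {p : ℕ} (hp : p.Prime) (hG : Good Q) (hb : SBelow.{0} p (Nat.card (P Q)))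
    (hF : 3 < Fintype.card F) (h7 : 7 ≤ finrank F V) {X Y : Gam Q} (hx : Fr4 Q X.1) (hy : Fr4 Q Y.1)
    (hxp : IsScal F (X.1 ^ p)) (hyp : IsScal F (Y.1 ^ p)) : SG Q p X Y := by
  obtain ⟨j₁, x', σ, c, h₁, hx', hc, hxc, hcn⟩ := hx
  obtain ⟨j₂, y', τ, d, h₂, hy', hd, hyd, hdn⟩ := hy
  obtain ⟨T, hT, hTj⟩ := exists_common hG nondeg_detQ h₁ h₂ (by rw [finrank_M2]; omega)
  refine SG.conj_right hT ?_
  have hj : T.toLinearMap ∘ₗ j₂ = j₁ := LinearMap.ext hTj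
  have hy'' : Cov j₁ (toA T * Y.1 * (toA T)⁻¹) y' := by
    rw [← hj]
    exact hy'.left T
  refine sg_core hp hG hb hF h7 h₁ hx' hy'' hc hd hxc hyd hxp ?_ hcn hdn
  show IsScal F ((toA T * Y.1 * (toA T)⁻¹) ^ p)
  rw [conj_pow]
  exact isScal_conj (semi_toA T) hyp

end four

section fourE

open Cfsg.Agent.H862.T5.OMinusFour

variable {a b : F} [hab : Fact (∀ r : F, r ^ 2 ≠ -b + a * r)]

theorem hyp_q4 : ∃ x y, Hyp (q4 F a b) x y :=
  ⟨(1, 0, 0), (0, 1, 0), by rw [q4_apply]; simp, by rw [q4_apply]; simp, by rw [polar_q4]; simp⟩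

theorem finEE : Finite (EE F a b) := Finite.of_equiv _ (QuadraticAlgebra.equivProd (-b) a).symm

theorem card_EE [Fintype (EE F a b)] : 3 < Fintype.card (EE F a b) := by
  rw [← Nat.card_eq_fintype_card, Nat.card_congr (QuadraticAlgebra.equivProd (-b) a), Nat.card_prod,
    Nat.card_eq_fintype_card]
  have : 2 ≤ Fintype.card F := Fintype.one_lt_card
  nlinarith

theorem sg_coreE {p : ℕ} (hp : p.Prime) (hG : Good Q) (hb : SBelow.{0} p (Nat.card (P Q)))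
    (h7 : 7 ≤ finrank F V) {j : VV F a b →ₗ[F] V} (he : Emb Q (q4 F a b) j)
    {X Y : Gam Q} {x' y' : Equiv.Perm (VV F a b)} {c d : Equiv.Perm (Fin 2 → EE F a b)}
    {σ' τ' : F ≃+* F} {σ τ : EE F a b ≃+* EE F a b} (hxs : Semi σ' x') (hys : Semi τ' y')
    (hx : Cov j X.1 x') (hy : Cov j Y.1 y') (hc : Semi σ c) (hd : Semi τ d) (hxc : TRE x' c) (hyd : TRE y' d)
    (hxp : IsScal F (X.1 ^ p)) (hyp : IsScal F (Y.1 ^ p)) (hcn : ¬ IsScal (EE F a b) c)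
    (hdn : ¬ IsScal (EE F a b) d) : SG Q p X Y := by
  have hj := he.injective nondeg_q4
  have := finEE (F := F) (a := a) (b := b)
  have := Fintype.ofFinite (EE F a b)
  have hfd : FiniteDimensional F (VV F a b) := inferInstance
  refine sg_psl hp hG he nondeg_q4 hyp_q4 (by rw [finrank_VV]; omega) hb (K := EE F a b) card_EE
    (fun X c => ∃ (x' : Equiv.Perm (VV F a b)) (σ' : F ≃+* F), Cov j X.1 x' ∧ Semi σ' x' ∧ TRE x' c)
    ⟨1, 1, Cov.one, Semi.one, TRE.one⟩ ?_ ?_ ?_ hc hd ⟨x', σ', hx, hxs, hxc⟩ ⟨y', τ', hy, hys, hyd⟩ hxp hyp hcn hdn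
  · rintro a b c d ⟨x, σ, h1, h2, h3⟩ ⟨y, τ, h4, h5, h6⟩
    exact ⟨x * y, σ * τ, h1.mul h4, h2.mul h5, h3.mul h2 h6⟩
  · rintro a c θ hθ ⟨x, σ, h1, h2, h3⟩ hs
    exact h3.isScal hθ (h1.isScal hj hs)
  · intro g hg
    obtain ⟨f, ⟨G, hGE, hGj⟩, hf1, -⟩ := exists_lift he hg
    exact ⟨G, hGE, ⟨toA f, 1, hGj, semi_toA f, hf1⟩, fun u => by rw [hGj]; exact ⟨_, rfl⟩⟩

theorem sg_of_frE {p : ℕ} (hp : p.Prime) (hG : Good Q) (hb : SBelow.{0} p (Nat.card (P Q)))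
    (h7 : 7 ≤ finrank F V) {X Y : Gam Q} (hx : FrE Q a b X.1) (hy : FrE Q a b Y.1)
    (hxp : IsScal F (X.1 ^ p)) (hyp : IsScal F (Y.1 ^ p)) : SG Q p X Y := by
  obtain ⟨j₁, x', σ', σ, c, h₁, hx', hxs, hc, hxc, hcn⟩ := hx
  obtain ⟨j₂, y', τ', τ, d, h₂, hy', hys, hd, hyd, hdn⟩ := hy
  obtain ⟨T, hT, hTj⟩ := exists_common hG nondeg_q4 h₁ h₂ (by rw [finrank_VV]; omega)
  refine SG.conj_right hT ?_
  have hj : T.toLinearMap ∘ₗ j₂ = j₁ := LinearMap.ext hTj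
  have hy'' : Cov j₁ (toA T * Y.1 * (toA T)⁻¹) y' := by
    rw [← hj]
    exact hy'.left T
  refine sg_coreE hp hG hb h7 h₁ hxs hys hx' hy'' hc hd hxc hyd hxp ?_ hcn hdn
  show IsScal F ((toA T * Y.1 * (toA T)⁻¹) ^ p)
  rw [conj_pow]
  exact isScal_conj (semi_toA T) hyp

end fourE

end Cfsg.Agent.H236.S5O
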