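import Cfsg.Agent.H236.S5O.Corr

/-!
# S2274, orthogonal groups: sections of `P Q` from nondegenerate subspaces

* `SG Q p X Y` : the strong pair property for the automorphisms of `P Q` induced by semisimilitudes `X`, `Y`;
* `exists_move` : some element of `E Q` moves a proper nondegenerate subspace;
* `sg_section` : correspondences with automorphisms of smaller simple groups;
* `sg_lift` : the forms on nondegenerate subspaces.
-/

set_option autoImplicit false
set_option linter.unusedSectionVars false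

namespace Cfsg.Agent.H236.S5O

open Cfsg.Agent.H533.T5 Cfsg.Agent.H132.S5 Cfsg.Agent.H106.MT Cfsg.Agent.H106.MB
open QuadraticMap Module Cfsg.Agent.LieClassical.OrthCore Cfsg.Agent.LieClassical.OrthTrans
  Cfsg.Agent.ClassicalGeometry.OrthSemi Cfsg.Agent.ClassicalGeometry.OrthAut1
open Cfsg.Agent.LieClassical.OrthSimple (good_isSimpleGroup)
open Cfsg.Agent.H862.T5.OBase Cfsg.Agent.H862.T5.OFrame Cfsg.Agent.H862.T5.OMain
open Cfsg.Agent.H957.T5V
open Cfsg.Agent.H208.Parity (ofO)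
open Cfsg.Agent.H951 (Frm Nd Inv)

variable {F V U : Type} [Field F] [Fintype F] [AddCommGroup V] [Module F V] [FiniteDimensional F V]
  [AddCommGroup U] [Module F U] [FiniteDimensional F U]
  {Q : QuadraticForm F V} {q : QuadraticForm F U} {j : U →ₗ[F] V}

/-- The strong pair property for the automorphisms of `P Q` induced by semisimilitudes. -/
abbrev SG (Q : QuadraticForm F V) (p : ℕ) (X Y : Gam Q) : Prop := SPair p (Inn (P Q)) (Psi Q X) (Psi Q Y)

theorem psi_mem_inn {T : V ≃ₗ[F] V} (hT : T ∈ E Q) : Psi Q (ofO T (E_le_O hT)) ∈ Inn (P Q) :=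
  ⟨_, (Psi_E hT).symm⟩

theorem SG.conj_right {p : ℕ} {X Y : Gam Q} {T : V ≃ₗ[F] V} (hT : T ∈ E Q)
    (h : SG Q p X (ofO T (E_le_O hT) * Y * (ofO T (E_le_O hT))⁻¹)) : SG Q p X Y := by
  refine SPair.conj_right (psi_mem_inn hT) ?_
  have e : Psi Q (ofO T (E_le_O hT)) * Psi Q Y * (Psi Q (ofO T (E_le_O hT)))⁻¹ =
      Psi Q (ofO T (E_le_O hT) * Y * (ofO T (E_le_O hT))⁻¹) := by rw [map_mul, map_mul, map_inv]
  rw [e]
  exact h

theorem finP : Finite (P Q) := by
  have hfin : Finite V := Module.finite_of_finite F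
  have hfinL : Finite (V ≃ₗ[F] V) := Finite.of_injective (fun f => (f : V → V)) DFunLike.coe_injective
  exact Quotient.finite _

theorem finGam : Finite (Gam Q) := by
  have hfin : Finite V := Module.finite_of_finite F
  infer_instance

/-- some element of `E Q` moves a proper nondegenerate subspace -/
theorem exists_move (_hG : Good Q) (hj : Emb Q q j) (hq : Nondeg q) (hyp : ∃ x y, Hyp q x y)
    (hlt : finrank F U < finrank F V) : ∃ g ∈ E Q, ∃ u, g (j u) ∉ LinearMap.range j := by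
  obtain ⟨x, y, hxy⟩ := hyp
  have hB := frm_polar Q
  have hn := hj.nd hq
  have hr : finrank F (LinearMap.range j) = finrank F U := LinearMap.finrank_range_of_inj (hj.injective hq)
  have hf := hB.finrank_perp_inf hn (le_top (a := LinearMap.range j))
  rw [finrank_top] at hf
  obtain ⟨w, ⟨hw, -⟩, hw0⟩ : ∃ w ∈ hB.perp (LinearMap.range j) ⊓ ⊤, w ≠ 0 := by
    apply Submodule.exists_mem_ne_zero_of_ne_bot
    intro h0
    rw [h0, finrank_bot] at hf
    omega
  have hw' : ∀ u, polar Q w (j u) = 0 := fun u => hw _ ⟨u, rfl⟩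
  have hu : Q (j x) = 0 := by rw [hj.form, hxy.left]
  have hxw : polar Q (j x) w = 0 := by rw [polar_comm]; exact hw' x
  refine ⟨siegel Q (j x) w hu hxw, siegel_mem_E _ _, y, ?_⟩
  rw [siegel_apply, hj.polar, hxy.pair, hw' y, one_smul, zero_smul, sub_zero, mul_one]
  intro hmem
  have h1 : w ∈ LinearMap.range j := by
    have h2 : w = (j y + w - Q w • j x) - j y + Q w • j x := by abel
    rw [h2]
    exact Submodule.add_mem _ (Submodule.sub_mem _ hmem ⟨y, rfl⟩) (Submodule.smul_mem _ _ ⟨x, rfl⟩)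
  obtain ⟨v, hv, h3⟩ := hn w h1 hw0
  exact h3 (hw v hv)

/-- **Sections.** -/
theorem sg_section {p : ℕ} (hp : p.Prime) (hG : Good Q) (hj : Emb Q q j) (hq : Nondeg q) (hyp : ∃ x y, Hyp q x y)
    (hlt : finrank F U < finrank F V) (hb : SBelow.{0} p (Nat.card (P Q)))
    {L : Type} [Group L] [Finite L] (hL : IsSimpleGroup L)
    (hLna : ¬ IsMulCommutative L) {H : Type*} [Group H] [Finite H]
    (ψ : H →* MulAut L) (Rel : Gam Q → H → Prop) (h1 : Rel 1 1)
    (hm : ∀ a b h k, Rel a h → Rel b k → Rel (a * b) (h * k))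
    (hker : ∀ (a : Gam Q) h, Rel a h → IsScal F a.1 → ψ h = 1)
    (hlift : ∀ l : L, ∃ G, ∃ hG : G ∈ E Q, ∃ h, Rel (ofO G (E_le_O hG)) h ∧ (∀ u, G (j u) ∈ LinearMap.range j) ∧
      ψ h = MulAut.conj l)
    {X Y : Gam Q} {h k : H} (hX : Rel X h) (hY : Rel Y k) (hh : orderOf (ψ h) = p) (hk : orderOf (ψ k) = p) :
    SG Q p X Y := by
  have := good_isSimpleGroup hG
  have := finP (Q := Q)
  have := finGam (Q := Q)
  have hsc : ∀ M : Gam Q, Psi Q M = 1 → ∃ a : Fˣ, M = scal Q a := fun M => exists_scal hG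
  refine spair_section hp (H885.FC.Orth.not_comm_P hG) hL hLna (Psi Q) ψ Rel h1 hm ?_
    (fun M => ∀ u, M.1 (j u) ∈ LinearMap.range j) ?_ ?_ ?_ ?_ ?_ hb hX hY hh hk
  · intro a h hr ha
    obtain ⟨c, rfl⟩ := hsc a ha
    exact hker _ _ hr ⟨c, fun v => rfl⟩
  · exact fun u => ⟨u, rfl⟩
  · intro a b ha hb u
    obtain ⟨u', hu'⟩ := hb u
    show a.1 (b.1 (j u)) ∈ _
    rw [← hu']
    exact ha u'
  · intro a b ha hab u
    obtain ⟨c, hc⟩ := hsc (b * a⁻¹) (by rw [map_mul, map_inv, hab, mul_inv_cancel])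
    have h2 : (b * a⁻¹).1 (a.1 (j u)) = (scal Q c).1 (a.1 (j u)) := by rw [hc]
    have h3 : (b * a⁻¹).1 (a.1 (j u)) = b.1 (a.1⁻¹ (a.1 (j u))) := rfl
    have h4 : a.1⁻¹ (a.1 (j u)) = j u := a.1.symm_apply_apply _
    rw [h3, h4] at h2
    rw [h2]
    exact Submodule.smul_mem _ _ (ha u)
  · intro l
    obtain ⟨G, hGE, h, hr, hw, hl⟩ := hlift l
    exact ⟨_, h, hr, hw, psi_mem_inn hGE, hl⟩
  · obtain ⟨g, hg, u, hu⟩ := exists_move hG hj hq hyp hlt
    exact ⟨ofO g (E_le_O hg), psi_mem_inn hg, fun h => hu (h u)⟩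

/-- **Nondegenerate subspaces.** -/
theorem sg_lift {p : ℕ} (hp : p.Prime) (hG : Good Q) (hj : Emb Q q j) (hq : Good q)
    (hlt : finrank F U < finrank F V) (hb : SBelow.{0} p (Nat.card (P Q)))
    {X Y : Gam Q} {X' Y' : Gam q} (hX : Cov j X.1 X'.1) (hY : Cov j Y.1 Y'.1)
    (hX' : orderOf (Psi q X') = p) (hY' : orderOf (Psi q Y') = p) : SG Q p X Y := by
  have := finP (Q := q)
  have := finGam (Q := q)
  have hinj := hj.injective hq.nondeg
  refine sg_section hp hG hj hq.nondeg hq.exists_hyp hlt hb (good_isSimpleGroup hq) (H885.FC.Orth.not_comm_P hq)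
    (Psi q) (fun X X' => Cov j X.1 X'.1) (fun _ => rfl) (fun a b h k h1 h2 => h1.mul h2) ?_ ?_ hX hY hX' hY'
  · intro a h hr ha
    obtain ⟨c, hc⟩ := hr.isScal hinj ha
    have hne : c ≠ 0 := by
      rintro rfl
      have := H208.ConjSS.nontrivial_of_good hq
      obtain ⟨v, hv⟩ := exists_ne (0 : U)
      apply hv
      apply h.1.injective
      rw [hc, hc, zero_smul, zero_smul]
    have h2 : h ∈ (Psi q).ker := by
      rw [ker_Psi hq]
      refine ⟨Units.mk0 c hne, Subtype.ext ?_⟩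
      ext1 v
      rw [hc, scal_apply, Units.val_mk0]
    exact h2
  · intro l
    obtain ⟨⟨n, hn⟩, rfl⟩ := QuotientGroup.mk_surjective l
    obtain ⟨G, hGE, hGj⟩ := hj.E_le hn
    exact ⟨G, hGE, ofO n (E_le_O hn), fun u => hGj u, fun u => by rw [hGj]; exact ⟨_, rfl⟩, Psi_E hn⟩

end Cfsg.Agent.H236.S5O
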