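import Cfsg.Agent.H236.S5O.Block

/-!
# S2274: the strong rows of the orthogonal groups in cross characteristic

`srowFam_odd`, `srowFam_plus`, `srowFam_minus`.
-/

set_option autoImplicit false
set_option linter.unusedSectionVars false

universe u

namespace Cfsg.Agent.H236.S5O

open Cfsg.Agent.H533.T5 Cfsg.Agent.H132.S5 Cfsg.Agent.H106.MT Cfsg.Agent.H106.MB
open QuadraticMap Module Cfsg.Agent.LieClassical.OrthCore Cfsg.Agent.LieClassical.OrthTrans
  Cfsg.Agent.ClassicalGeometry.OrthSemi Cfsg.Agent.ClassicalGeometry.OrthAut1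
open Cfsg.Agent.LieClassical.QuadForms
open Cfsg.Agent.H208.ConjSS (exists_normal isSS_scal_mul Psi_scal nontrivial_of_good)
open Cfsg.Agent.LieClassical.OrthSimple (good_isSimpleGroup)
open Cfsg.Agent.H862.T5.OBase Cfsg.Agent.H862.T5.OFrame Cfsg.Agent.H862.T5.OMain Cfsg.Agent.H862.T5.OFix
  Cfsg.Agent.H862.T5.OAA Cfsg.Agent.H862.T5.OBlock Cfsg.Agent.H862.T5.OLinFour
open Cfsg.Agent.H957.T5V
open Cfsg.Agent.H208.Parity (ofO)
open Cfsg.Agent.H951
open Cfsg.Agent.H966.Frob Cfsg.Agent.H208.Ext Cfsg.Agent.H208.Frame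

section gen

variable {F V U : Type} [Field F] [Fintype F] [AddCommGroup V] [Module F V] [FiniteDimensional F V]
  [AddCommGroup U] [Module F U] [FiniteDimensional F U]
  {Q : QuadraticForm F V} {q : QuadraticForm F U}

theorem psi_of_scl (hG : Good Q) {X Y : Gam Q} (h : Scl F X.1 Y.1) : Psi Q X = Psi Q Y := by
  obtain ⟨s, hs, h⟩ := h
  have h1 : X = scal Q (Units.mk0 s hs) * Y := by
    apply Subtype.ext
    ext1 v
    rw [h]
    rfl
  rw [h1, map_mul, Psi_scal hG, one_mul]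

theorem order_of_pow (hG : Good Q) {p : ℕ} (hp : p.Prime) {X : Gam Q} (h1 : X.1 ^ p = 1) (hn : ¬ IsScal F X.1) :
    orderOf (Psi Q X) = p := by
  have := Fact.mk hp
  exact orderOf_eq_prime (psi_pow_eq_one hG ⟨1, fun v => by rw [h1, one_smul]; rfl⟩) (psi_ne_one hG hn)

/-- pairs with isometric invariant subspaces -/
theorem sg_pair {p : ℕ} (hp : p.Prime) (hG : Good Q) (hq : Good q) (hlt : finrank F U < finrank F V)
    (hb : SBelow.{0} p (Nat.card (P Q))) {j₁ j₂ : U →ₗ[F] V} (h₁ : Emb Q q j₁) (h₂ : Emb Q q j₂)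
    {X Y : Gam Q} {X' Y' : Gam q} (hX : Cov j₁ X.1 X'.1) (hY : Cov j₂ Y.1 Y'.1)
    (hX' : orderOf (Psi q X') = p) (hY' : orderOf (Psi q Y') = p) : SG Q p X Y := by
  obtain ⟨T, hT, g, hg, hTj⟩ := exists_common' hG hq.nondeg h₁ h₂ (by have := hq.dim; omega)
  refine SG.conj_right hT ?_
  have hy2 : Cov (T.toLinearMap ∘ₗ j₂) (toA T * Y.1 * (toA T)⁻¹) Y'.1 := hY.left T
  have hy3 : Cov j₁ (toA T * Y.1 * (toA T)⁻¹) (toA g * Y'.1 * (toA g)⁻¹) := hy2.right hTj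
  refine sg_lift hp hG h₁ hq hlt hb hX (Y' := ofO g hg * Y' * (ofO g hg)⁻¹) hy3 hX' ?_
  rw [map_mul, map_mul, map_inv, orderOf_cj, hY']

theorem order_ofO (hG : Good Q) {p : ℕ} (hp : p.Prime) (hodd : Odd p) {g : V ≃ₗ[F] V} (hg : g ∈ O Q)
    (hgp : g ^ p = 1) (hg1 : g ≠ 1) : orderOf (Psi Q (ofO g hg)) = p := by
  have := Fact.mk hp
  refine orderOf_eq_prime (psi_pow_eq_one hG ?_) fun h => hg1 (eq_one_of_Psi hG hodd hg hgp h)
  have h1 : (ofO g hg).1 = toA g := rfl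
  rw [h1]
  exact isScal_of_pow_one (toA_pow_one hgp)

theorem three_lt_of_ord {p : ℕ} [hp : Fact p.Prime] (hp5 : 5 ≤ p)
    (he : orderOf (Fintype.card F : ZMod p) = 1 ∨ orderOf (Fintype.card F : ZMod p) = 2) : 3 < Fintype.card F := by
  by_contra hlt
  have h2 : 2 ≤ Fintype.card F := Fintype.one_lt_card
  have hsq : (Fintype.card F : ZMod p) ^ 2 = 1 := by
    rcases he with h | h
    · rw [orderOf_eq_one_iff.1 h, one_pow]
    · rw [← h, pow_orderOf_eq_one]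
  have h3 : Fintype.card F = 2 ∨ Fintype.card F = 3 := by omega
  have h5 : p ∣ 3 ∨ p ∣ 8 := by
    rcases h3 with h | h
    · left
      rw [← ZMod.natCast_eq_zero_iff]
      rw [h] at hsq
      push_cast at hsq ⊢
      linear_combination hsq
    · right
      rw [← ZMod.natCast_eq_zero_iff]
      rw [h] at hsq
      push_cast at hsq ⊢
      linear_combination hsq
  rcases h5 with h | h
  · have := Nat.le_of_dvd (by norm_num) h
    omega
  · have h8 : p ∣ 2 ^ 3 := h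
    have := Nat.le_of_dvd (by norm_num) (hp.out.dvd_of_dvd_pow h8)
    omega

theorem three_lt_of_aut {p : ℕ} (hp5 : 5 ≤ p) {σ : F ≃+* F} (ho : orderOf σ = p) : 3 < Fintype.card F := by
  have := Fintype.ofFinite (fix σ)
  have h1 : Nat.card F = Nat.card (fix σ) ^ p := H202.Descent.card_fixed ho
  have h2 : 2 ≤ Nat.card (fix σ) := by
    rw [Nat.card_eq_fintype_card]
    exact Fintype.one_lt_card
  rw [← Nat.card_eq_fintype_card, h1]
  calc 3 < 2 ^ 5 := by norm_num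
    _ ≤ 2 ^ p := Nat.pow_le_pow_right (by norm_num) hp5
    _ ≤ _ := Nat.pow_le_pow_left h2 p

end gen

section pairs

variable {F V : Type} [Field F] [Fintype F] [AddCommGroup V] [Module F V] [FiniteDimensional F V]
  {Q : QuadraticForm F V} {κ : Type} [Fintype κ] [DecidableEq κ]

/-- blocks of two linear isometries -/
theorem sg_ll_block {p : ℕ} (B : SBox.{0} p) [hp : Fact p.Prime] (hG : Good Q) (hp2 : p ≠ 2)
    (hpF : (p : F) ≠ 0) (hb : SBelow.{0} p (Nat.card (P Q))) {m : ℕ} (hm : 3 ≤ m) (hκ : Fintype.card κ = 2 * m)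
    (hc : 2 * m = if Even (orderOf (Fintype.card F : ZMod p)) then orderOf (Fintype.card F : ZMod p) else
      2 * orderOf (Fintype.card F : ZMod p)) {P' : QuadraticForm F (κ → F)} (hP : Good P')
    {g₁ g₂ : V ≃ₗ[F] V} (h₁ : NLin Q p g₁) (h₂ : NLin Q p g₂)
    {j₁ j₂ : (κ → F) →ₗ[F] V} (e₁ : Emb Q P' j₁) (e₂ : Emb Q P' j₂)
    (i₁ : Inv (en g₁) (LinearMap.range j₁)) (i₂ : Inv (en g₂) (LinearMap.range j₂))
    (c₁ : LinearMap.range j₁ ≤ cm (en g₁)) (c₂ : LinearMap.range j₂ ≤ cm (en g₂)) :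
    SG Q p (ofO g₁ h₁.1) (ofO g₂ h₂.1) := by
  have hfr : finrank F (κ → F) = 2 * m := by rw [Module.finrank_fintype_fun_eq_card, hκ]
  have := nontrivial_of_good hP
  have hodd := hp.out.odd_of_ne_two hp2
  have hle : finrank F (κ → F) ≤ finrank F V :=
    LinearMap.finrank_le_finrank_of_injective (e₁.injective hP.nondeg)
  rcases hle.eq_or_lt with hEq | hlt
  · exact sg_block B hG hm (by rw [← hEq, hfr]) hp2 hpF hc (isSS_ofO _) (order_ofO hG hp.out hodd h₁.1 h₁.2.1 h₁.2.2)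
      (order_ofO hG hp.out hodd h₂.1 h₂.2.1 h₂.2.2)
  · obtain ⟨g₁', hg₁', hj₁, hp₁, hn₁⟩ := exists_cov_lin e₁ hP.nondeg h₁.1 i₁ c₁ hpF h₁.2.1
    obtain ⟨g₂', hg₂', hj₂, hp₂, hn₂⟩ := exists_cov_lin e₂ hP.nondeg h₂.1 i₂ c₂ hpF h₂.2.1
    exact sg_pair hp.out hG hP hlt hb e₁ e₂ (X' := ofO g₁' hg₁') (Y' := ofO g₂' hg₂') (cov_toA hj₁) (cov_toA hj₂)
      (order_ofO hP hp.out hodd hg₁' hp₁ hn₁) (order_ofO hP hp.out hodd hg₂' hp₂ hn₂)

/-- blocks of a linear isometry and a nonlinear semisimilitude -/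
theorem sg_ln_block {p : ℕ} [hp : Fact p.Prime] (hG : Good Q) (hp2 : p ≠ 2)
    (hpF : (p : F) ≠ 0) (hb : SBelow.{0} p (Nat.card (P Q))) {m : ℕ} (hm : 3 ≤ m) (hκ : Fintype.card κ = 2 * m)
    (hlt : 2 * m < finrank F V) {P' : QuadraticForm F (κ → F)} (hP : Good P')
    {g₁ : V ≃ₗ[F] V} (h₁ : NLin Q p g₁)
    {j₁ : (κ → F) →ₗ[F] V} (e₁ : Emb Q P' j₁)
    (i₁ : Inv (en g₁) (LinearMap.range j₁)) (c₁ : LinearMap.range j₁ ≤ cm (en g₁))
    {σ : F ≃+* F} (hσ1 : σ ≠ 1) (hσP : ∀ v, P' (frob κ σ v) = σ (P' v))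
    {M : Gam Q} (hMp : M.1 ^ p = 1)
    {j₂ : (κ → F) →ₗ[F] V} {e : F} (he : e ≠ 0) (hj₂ : ∀ x, Q (j₂ x) = e * P' x)
    (hM : ∀ x, M.1 (j₂ x) = j₂ (frob κ σ x))
    {ψ : (κ → F) ≃ₗ[F] (κ → F)} (hψ : ∀ x, P' (ψ x) = e * P' x) :
    SG Q p (ofO g₁ h₁.1) M := by
  have hfr : finrank F (κ → F) = 2 * m := by rw [Module.finrank_fintype_fun_eq_card, hκ]
  have hnd : Nondeg (e • P') := nondeg_smul hP.nondeg he
  have hGq : Good (e • P') := Cfsg.Agent.LieClassical.OrthFinite.good_of_finite hnd (by rw [hfr]; omega)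
  have := nontrivial_of_good hGq
  have hodd := hp.out.odd_of_ne_two hp2
  have e₁' : Emb Q (e • P') (j₁ ∘ₗ ψ.toLinearMap) := ⟨fun u => by
    rw [LinearMap.comp_apply, e₁.form]
    exact hψ u⟩
  have hr : LinearMap.range (j₁ ∘ₗ ψ.toLinearMap) = LinearMap.range j₁ := by
    rw [LinearMap.range_comp, LinearEquiv.range, Submodule.map_top]
  have e₂' : Emb Q (e • P') j₂ := ⟨fun u => hj₂ u⟩
  obtain ⟨g₁', hg₁', hj₁, hp₁, hn₁⟩ := exists_cov_lin e₁' hnd h₁.1 (by rw [hr]; exact i₁) (by rw [hr]; exact c₁) hpF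
    h₁.2.1
  have hfrob : IsSS (e • P') σ (e * (σ e)⁻¹) (frob κ σ) := by
    refine ⟨mul_ne_zero he (inv_ne_zero (by simpa using he)), fun u v => ?_, fun a v => ?_, fun v => ?_⟩
    · funext i
      exact map_add σ _ _
    · funext i
      exact map_mul σ _ _
    · have hσe : σ e ≠ 0 := by simpa using he
      show e * P' (frob κ σ v) = e * (σ e)⁻¹ * σ (e * P' v)
      rw [hσP, map_mul]
      field_simp
  have hfp : (frob κ σ) ^ p = 1 := by
    ext1 u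
    apply e₂'.injective hnd
    have h1 := Cov.pow (x := M.1) (x' := frob κ σ) (j := j₂) hM p u
    rw [hMp] at h1
    exact h1.symm
  exact sg_pair hp.out hG hGq (by rw [hfr]; exact hlt) hb e₁' e₂' (X' := ofO g₁' hg₁')
    (Y' := ⟨frob κ σ, σ, _, hfrob⟩) (cov_toA hj₁) hM (order_ofO hGq hp.out hodd hg₁' hp₁ hn₁)
    (order_of_pow hGq hp.out hfp (H862.T5.ONonlin.not_isScal_of_semi hσ1 ⟨hfrob.add, hfrob.smul⟩))

end pairs

section main

variable {F V : Type} [Field F] [Fintype F] [AddCommGroup V] [Module F V] [FiniteDimensional F V]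
  {Q : QuadraticForm F V}

theorem sg_ll {p : ℕ} (B : SBox.{0} p) [hp : Fact p.Prime] (hG : Good Q) (h7 : 7 ≤ finrank F V)
    (hp5 : 5 ≤ p) (hpF : (p : F) ≠ 0) (hb : SBelow.{0} p (Nat.card (P Q))) {g₁ g₂ : V ≃ₗ[F] V}
    (h₁ : NLin Q p g₁) (h₂ : NLin Q p g₂) : SG Q p (ofO g₁ h₁.1) (ofO g₂ h₂.1) := by
  obtain ⟨e, he⟩ : ∃ e, e = orderOf (Fintype.card F : ZMod p) := ⟨_, rfl⟩
  have he0 : 0 < e := by rw [he]; exact ord_pos hpF
  by_cases h12 : e = 1 ∨ e = 2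
  · rw [he] at h12
    exact sg_of_fr4 hp.out hG hb (three_lt_of_ord hp5 h12) h7 (h₁.fr4 hG (by omega) hpF h12)
      (h₂.fr4 hG (by omega) hpF h12) h₁.isScal h₂.isScal
  by_cases h4 : e = 4
  · rw [he] at h4
    obtain ⟨a, b, hab⟩ := exists_aniso F
    have := H862.T5.OMinusFour.fact_of_aniso hab
    exact sg_of_frE (a := a) (b := b) hp.out hG hb h7 (frE_lin hG hp5 hpF h4 h₁)
      (frE_lin hG hp5 hpF h4 h₂) h₁.isScal h₂.isScal
  rcases Nat.even_or_odd e with hev | hodd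
  · obtain ⟨m, hm⟩ := hev
    obtain ⟨a, b, hab⟩ := exists_aniso F
    obtain ⟨j₁, e₁, i₁, c₁⟩ := exists_minus_block hG.nondeg h₁.1 (by omega) hpF h₁.2.1 h₁.2.2 (m := m)
      (by omega) (a := a) (b := b) hab
    obtain ⟨j₂, e₂, i₂, c₂⟩ := exists_minus_block hG.nondeg h₂.1 (by omega) hpF h₂.2.1 h₂.2.2 (m := m)
      (by omega) (a := a) (b := b) hab
    rw [AutOrth.Main.minusForm_eq] at e₁ e₂
    refine sg_ll_block B hG (by omega) hpF hb (m := m) (by omega) ?_ ?_ (AutOrth.Main.good_minus (by omega) hab)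
      h₁ h₂ e₁ e₂ i₁ i₂ c₁ c₂
    · simp only [Fintype.card_sum, Fintype.card_fin]
      omega
    · rw [← he, if_pos ⟨m, hm⟩]
      omega
  · obtain ⟨j₁, e₁, i₁, c₁⟩ := exists_plus_block hG.nondeg h₁.1 (by omega) hpF h₁.2.1 h₁.2.2 he.symm hodd
    obtain ⟨j₂, e₂, i₂, c₂⟩ := exists_plus_block hG.nondeg h₂.1 (by omega) hpF h₂.2.1 h₂.2.2 he.symm hodd
    rw [AutOrth.Main.plusForm_eq] at e₁ e₂
    have he3 : 3 ≤ e := by
      obtain ⟨k, hk⟩ := hodd
      omega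
    refine sg_ll_block B hG (by omega) hpF hb (m := e) he3 ?_ ?_ (AutOrth.Main.good_plus he3)
      h₁ h₂ e₁ e₂ i₁ i₂ c₁ c₂
    · simp only [Fintype.card_sum, Fintype.card_fin]
      omega
    · rw [← he, if_neg (Nat.not_even_iff_odd.2 hodd)]

theorem sg_ln {p : ℕ} (B : SBox.{0} p) [hp : Fact p.Prime] (hG : Good Q) (h7 : 7 ≤ finrank F V)
    (hp5 : 5 ≤ p) (hpF : (p : F) ≠ 0) (hb : SBelow.{0} p (Nat.card (P Q))) {g₁ : V ≃ₗ[F] V} (h₁ : NLin Q p g₁)
    {σ : F ≃+* F} {M : Gam Q} (hM : NNl Q p σ M.1) : SG Q p (ofO g₁ h₁.1) M := by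
  have hpodd := hp.out.odd_of_ne_two (by omega : p ≠ 2)
  obtain ⟨e, he⟩ : ∃ e, e = orderOf (Fintype.card F : ZMod p) := ⟨_, rfl⟩
  have he0 : 0 < e := by rw [he]; exact ord_pos hpF
  by_cases h12 : e = 1 ∨ e = 2
  · rw [he] at h12
    exact sg_of_fr4 hp.out hG hb (three_lt_of_ord hp5 h12) h7 (h₁.fr4 hG (by omega) hpF h12) (hM.fr4 hp.out hG)
      h₁.isScal hM.isScal
  obtain ⟨⟨c, hc⟩, hσ1, hσp, hMp⟩ := id hM
  have := nontrivial_of_good hG
  have := Fintype.ofFinite (fix σ)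
  obtain ⟨a, b, hab⟩ := exists_aniso (fix σ)
  have habF : ∀ z₁ z₂ : F, z₁ ^ 2 + (a : F) * z₁ * z₂ + (b : F) * z₂ ^ 2 = 0 → z₁ = 0 ∧ z₂ = 0 :=
    aniso_fix hσp hpodd hab
  by_cases h4 : e = 4
  · rw [he] at h4
    have := H862.T5.OMinusFour.fact_of_aniso habF
    exact sg_of_frE (a := (a : F)) (b := (b : F)) hp.out hG hb h7 (frE_lin hG hp5 hpF h4 h₁)
      (H862.T5.OMinusFour.frE_nl hG a.2 b.2 hc hσ1 hσp hp.out.pos hMp) h₁.isScal hM.isScal
  -- the whole space is one block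
  have hwhole : ∀ m : ℕ, 3 ≤ m → (2 * m = if Even (orderOf (Fintype.card F : ZMod p)) then
      orderOf (Fintype.card F : ZMod p) else 2 * orderOf (Fintype.card F : ZMod p)) → finrank F V = 2 * m →
      SG Q p (ofO g₁ h₁.1) M := by
    intro m hm hcm hd
    exact sg_block B hG hm hd (by omega) hpF hcm (isSS_ofO _) (order_ofO hG hp.out hpodd h₁.1 h₁.2.1 h₁.2.2)
      (order_of_pow hG hp.out hMp (H862.T5.ONonlin.not_isScal_of_semi hσ1 ⟨hc.add, hc.smul⟩))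
  rcases Nat.even_or_odd e with hev | hodd
  · obtain ⟨m, hm⟩ := hev
    obtain ⟨j₁, e₁, i₁, c₁⟩ := exists_minus_block hG.nondeg h₁.1 (by omega) hpF h₁.2.1 h₁.2.2 (m := m)
      (by omega) (a := (a : F)) (b := (b : F)) habF
    rw [AutOrth.Main.minusForm_eq] at e₁
    have hGm : Good (minusForm (m - 1) F (a : F) b) := AutOrth.Main.good_minus (by omega) habF
    have hκ : Fintype.card ((Fin (m - 1) ⊕ Fin (m - 1)) ⊕ Fin 2) = 2 * m := by
      simp only [Fintype.card_sum, Fintype.card_fin]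
      omega
    have hcm : 2 * m = if Even (orderOf (Fintype.card F : ZMod p)) then orderOf (Fintype.card F : ZMod p) else
        2 * orderOf (Fintype.card F : ZMod p) := by
      rw [← he, if_pos ⟨m, hm⟩]
      omega
    have hle : 2 * m ≤ finrank F V := by
      rw [← hκ, ← Module.finrank_fintype_fun_eq_card F]
      exact LinearMap.finrank_le_finrank_of_injective (e₁.injective hGm.nondeg)
    rcases hle.eq_or_lt with hEq | hlt
    · exact hwhole m (by omega) hcm hEq.symm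
    obtain ⟨j₂, s, hs, hj₂, hMj⟩ := H862.T5.ONonlin.exists_frame_nl hG.nondeg hc hσp hp.out.pos hMp hκ hlt
      (P₀ := minusForm (m - 1) (fix σ) a b) (by
        rw [← AutOrth.Main.minusForm_eq]
        exact Cfsg.Agent.LieClassical.OrthForms.nondeg_minusForm _ (fix σ) _ _ hab)
      (P := minusForm (m - 1) F a b) (fun x => by rw [coe_minusForm, coe_minusForm, coe_minus])
    obtain ⟨ψ, hψ⟩ := H193.QuadEmb.minus_iso (F := F) (m - 1) habF habF hs
    exact sg_ln_block hG (by omega) hpF hb (m := m) (by omega) hκ hlt hGm h₁ e₁ i₁ c₁ hσ1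
      (minusForm_frob _ a.2 b.2) hMp hs hj₂ hMj (ψ := ψ) (fun x => by rw [coe_minusForm]; exact hψ x)
  · obtain ⟨j₁, e₁, i₁, c₁⟩ := exists_plus_block hG.nondeg h₁.1 (by omega) hpF h₁.2.1 h₁.2.2 he.symm hodd
    rw [AutOrth.Main.plusForm_eq] at e₁
    have he3 : 3 ≤ e := by
      obtain ⟨k, hk⟩ := hodd
      omega
    have hGm : Good (plusForm e F) := AutOrth.Main.good_plus he3
    have hκ : Fintype.card (Fin e ⊕ Fin e) = 2 * e := by
      simp only [Fintype.card_sum, Fintype.card_fin]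
      omega
    have hcm : 2 * e = if Even (orderOf (Fintype.card F : ZMod p)) then orderOf (Fintype.card F : ZMod p) else
        2 * orderOf (Fintype.card F : ZMod p) := by
      rw [← he, if_neg (Nat.not_even_iff_odd.2 hodd)]
    have hle : 2 * e ≤ finrank F V := by
      rw [← hκ, ← Module.finrank_fintype_fun_eq_card F]
      exact LinearMap.finrank_le_finrank_of_injective (e₁.injective hGm.nondeg)
    rcases hle.eq_or_lt with hEq | hlt
    · exact hwhole e he3 hcm hEq.symm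
    obtain ⟨j₂, s, hs, hj₂, hMj⟩ := H862.T5.ONonlin.exists_frame_nl hG.nondeg hc hσp hp.out.pos hMp hκ hlt
      (P₀ := plusForm e (fix σ)) (polar_plusForm_nondeg e)
      (P := plusForm e F) (fun x => by rw [coe_plusForm, coe_plusForm, coe_plus])
    obtain ⟨ψ, hψ⟩ := H193.QuadEmb.plus_iso (F := F) e hs
    exact sg_ln_block hG (by omega) hpF hb (m := e) he3 hκ hlt hGm h₁ e₁ i₁ c₁ hσ1
      (plusForm_frob _) hMp hs hj₂ hMj (ψ := ψ) (fun x => by rw [coe_plusForm]; exact hψ x)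

/-- normalisation -/
theorem exists_norm' (hG : Good Q) {p : ℕ} (hp : p.Prime) (hp2 : p ≠ 2) (X : Gam Q) (hX : orderOf (Psi Q X) = p) :
    (∃ g, ∃ h : NLin Q p g, Psi Q X = Psi Q (ofO g h.1)) ∨ ∃ (σ : F ≃+* F) (M : Gam Q), NNl Q p σ M.1 ∧
      Psi Q X = Psi Q M := by
  have hXp : IsScal F (X.1 ^ p) := by
    obtain ⟨a, ha⟩ := exists_scal hG (M := X ^ p) (by rw [map_pow, ← hX, pow_orderOf_eq_one])
    refine ⟨a, fun v => ?_⟩
    have h1 : (X ^ p).1 v = (scal Q a).1 v := by rw [ha]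
    exact h1
  have hXn : ¬ IsScal F X.1 := by
    rintro ⟨a, ha⟩
    have hne : a ≠ 0 := by
      rintro rfl
      have := nontrivial_of_good hG
      obtain ⟨v, hv⟩ := exists_ne (0 : V)
      apply hv
      apply X.1.injective
      rw [ha, ha, zero_smul, zero_smul]
    have h1 : X ∈ (Psi Q).ker := by
      rw [ker_Psi hG]
      refine ⟨Units.mk0 a hne, Subtype.ext ?_⟩
      ext1 v
      rw [ha, scal_apply, Units.val_mk0]
    rw [MonoidHom.mem_ker] at h1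
    rw [h1, orderOf_one] at hX
    exact hp.one_lt.ne hX
  rcases H862.T5.ORow.exists_norm hp hp2 hG X hXp hXn with ⟨g, h, hs⟩ | ⟨σ, M, h, hs⟩
  · exact Or.inl ⟨g, h, (psi_of_scl hG (X := ofO g h.1) (Y := X) hs).symm⟩
  · obtain ⟨c, hc⟩ := h.1
    exact Or.inr ⟨σ, ⟨M, σ, c, hc⟩, h, (psi_of_scl hG (X := ⟨M, σ, c, hc⟩) (Y := X) hs).symm⟩

/-- **The pair property for semisimilitudes.** -/
theorem sg_main {p : ℕ} (B : SBox.{0} p) (hp : p.Prime) (hG : Good Q) (h7 : 7 ≤ finrank F V)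
    (hp5 : 5 ≤ p) (hpF : (p : F) ≠ 0) (hb : SBelow.{0} p (Nat.card (P Q))) {X Y : Gam Q}
    (hX : orderOf (Psi Q X) = p) (hY : orderOf (Psi Q Y) = p) : SG Q p X Y := by
  have := Fact.mk hp
  show SPair p _ _ _
  rcases exists_norm' hG hp (by omega) X hX with ⟨g₁, h₁, s₁⟩ | ⟨σ₁, M₁, h₁, s₁⟩
  · rcases exists_norm' hG hp (by omega) Y hY with ⟨g₂, h₂, s₂⟩ | ⟨σ₂, M₂, h₂, s₂⟩
    · rw [s₁, s₂]
      exact sg_ll B hG h7 hp5 hpF hb h₁ h₂
    · rw [s₁, s₂]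
      exact sg_ln B hG h7 hp5 hpF hb h₁ h₂
  · rcases exists_norm' hG hp (by omega) Y hY with ⟨g₂, h₂, s₂⟩ | ⟨σ₂, M₂, h₂, s₂⟩
    · rw [s₁, s₂]
      exact (sg_ln B hG h7 hp5 hpF hb h₂ h₁).symm
    · rw [s₁, s₂]
      exact sg_of_fr4 hp hG hb (three_lt_of_aut hp5 h₁.2.2.1) h7 (h₁.fr4 hp hG) (h₂.fr4 hp hG) h₁.isScal h₂.isScal

end main

/-- the row for a good form -/
theorem srow_good {ι F : Type} [Fintype ι] [DecidableEq ι] [Nonempty ι] [Field F] [Fintype F]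
    {Q : QuadraticForm F (ι → F)} (hG : Good Q) (h7 : 7 ≤ Fintype.card ι) {p : ℕ} (B : SBox.{0} p)
    (hp : p.Prime) (hp5 : 5 ≤ p) (hpF : (p : F) ≠ 0)
    (hb : SBelow.{0} p (Nat.card (Cfsg.POmega F ⇑Q)))
    (hind : ∀ c : MulAut (Cfsg.POmega F ⇑Q), orderOf c = p → ∃ y, H903.SylSemi.SemiO F ⇑Q y ∧
      H903.SylSemi.Ind (H152.MeetOmega.proj ⇑Q) (H152.MeetOmega.rho ⇑Q) y c) : SRow p (Cfsg.POmega F ⇑Q) := by
  refine Cfsg.Agent.H897.T5Sub.SRow.congr (AutOrth.Main.pe hG).symm ?_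
  rw [Nat.card_congr (AutOrth.Main.pe hG).toEquiv] at hb
  have key : ∀ c : MulAut (P Q), orderOf c = p → ∃ X : Gam Q, Psi Q X = c := by
    intro c hc
    obtain ⟨β, rfl⟩ := (MulAut.congr (AutOrth.Main.pe hG)).surjective c
    rw [MulEquiv.orderOf_eq] at hc
    obtain ⟨y, hy, hyc⟩ := hind β hc
    exact ⟨⟨y, H152.MeetOmega.mem_gam_iff.2 hy⟩,
      ((H152.MeetOmega.ind_iff hG ⟨y, H152.MeetOmega.mem_gam_iff.2 hy⟩ β).1 hyc).symm⟩
  intro c d hc hd
  obtain ⟨X, rfl⟩ := key c hc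
  obtain ⟨Y, rfl⟩ := key d hd
  exact sg_main B hp hG (by rwa [Module.finrank_fintype_fun_eq_card]) hp5 hpF hb hc hd

theorem below_congr {S : Type u} [Group S] {T : Type} [Group T] {p : ℕ} (e : S ≃* T)
    (h : SBelow.{u} p (Nat.card S)) : SBelow.{0} p (Nat.card T) := by
  rw [← Nat.card_congr e.toEquiv]
  exact down h

/-- **The strong row for `PΩ_{2m+1}(q)`**, cross characteristic. -/
theorem srow_odd {S : Type u} [Group S] (hS : Cfsg.IsPOmegaOdd S) {p : ℕ} (hp : p.Prime) (hp5 : 5 ≤ p)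
    (hch : ¬ Cfsg.IsPOmegaOddChar p S) (B : SBox.{0} p) (hlt : SBelow.{u} p (Nat.card S)) : SRow p S := by
  obtain ⟨F, _, _, m, hm, hq, ⟨e⟩⟩ := hS
  have hpF : (p : F) ≠ 0 := H862.T5.ORow.cast_ne hp (by
    rintro ⟨hF⟩
    exact hch ⟨F, _, _, hF, m, hm, hq, ⟨e⟩⟩)
  have h2 : (2 : F) ≠ 0 := by
    intro h
    have h3 : CharP F 2 := CharTwo.of_one_ne_zero_of_two_eq_zero one_ne_zero h
    have h4 := FiniteField.even_card_iff_char_two.1 (ringChar.eq F 2 ▸ rfl : ringChar F = 2)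
    rw [Nat.odd_iff] at hq
    omega
  have hG := AutOrth.Main.good_odd (F := F) (m := m) (by omega) h2
  refine Cfsg.Agent.H897.T5Sub.SRow.congr e.symm ?_
  have hb := below_congr e hlt
  have hind : ∀ c : MulAut (Cfsg.POmega F (Cfsg.quadFormOdd m F)), orderOf c = p →
      ∃ y, H903.SylSemi.SemiO F (Cfsg.quadFormOdd m F) y ∧
      H903.SylSemi.Ind (H152.MeetOmega.proj (Cfsg.quadFormOdd m F)) (H152.MeetOmega.rho (Cfsg.quadFormOdd m F)) y c :=
    fun c _ => H152.MeetOmega.gamma_odd hm h2 c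
  rw [← coe_oddForm] at hind hb ⊢
  exact srow_good hG (by simp only [Fintype.card_sum, Fintype.card_fin, Fintype.card_unit]; omega) B hp hp5 hpF hb hind

/-- **The strong row for `PΩ⁺_{2m}(q)`**, cross characteristic. -/
theorem srow_plus {S : Type u} [Group S] (hS : Cfsg.IsPOmegaPlus S) {p : ℕ} (hp : p.Prime) (hp5 : 5 ≤ p)
    (hch : ¬ Cfsg.IsPOmegaPlusChar p S) (B : SBox.{0} p) (hlt : SBelow.{u} p (Nat.card S)) : SRow p S := by
  obtain ⟨F, _, _, m, hm, ⟨e⟩⟩ := hS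
  have := Fact.mk hp
  have hpF : (p : F) ≠ 0 := H862.T5.ORow.cast_ne hp (by
    rintro ⟨hF⟩
    exact hch ⟨F, inferInstance, inferInstance, hF, m, hm, ⟨e⟩⟩)
  have hG := AutOrth.Main.good_plus (F := F) (m := m) (by omega)
  have : Nonempty (Fin m ⊕ Fin m) := ⟨.inl ⟨0, by omega⟩⟩
  refine Cfsg.Agent.H897.T5Sub.SRow.congr e.symm ?_
  have hb := below_congr e hlt
  have hind : ∀ c : MulAut (Cfsg.POmega F (Cfsg.quadFormPlus m F)), orderOf c = p →
      ∃ y, H903.SylSemi.SemiO F (Cfsg.quadFormPlus m F) y ∧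
      H903.SylSemi.Ind (H152.MeetOmega.proj (Cfsg.quadFormPlus m F)) (H152.MeetOmega.rho (Cfsg.quadFormPlus m F))
        y c := by
    intro c hc
    refine H152.MeetOmega.gamma_plus hp5 hm (P := Subgroup.zpowers c) ?_ c (Subgroup.mem_zpowers c)
    exact IsPGroup.of_card (n := 1) (by rw [Nat.card_zpowers, hc, pow_one])
  rw [← coe_plusForm] at hind hb ⊢
  exact srow_good hG (by simp only [Fintype.card_sum, Fintype.card_fin]; omega) B hp hp5 hpF hb hind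

/-- **The strong row for `PΩ⁻_{2m}(q)`**, cross characteristic. -/
theorem srow_minus {S : Type u} [Group S] (hS : Cfsg.IsPOmegaMinus S) {p : ℕ} (hp : p.Prime) (hp5 : 5 ≤ p)
    (hch : ¬ Cfsg.IsPOmegaMinusChar p S) (B : SBox.{0} p) (hlt : SBelow.{u} p (Nat.card S)) : SRow p S := by
  obtain ⟨F, _, _, m, a, b, hm, hab, ⟨e⟩⟩ := hS
  have hpF : (p : F) ≠ 0 := H862.T5.ORow.cast_ne hp (by
    rintro ⟨hF⟩
    exact hch ⟨F, inferInstance, inferInstance, hF, m, a, b, hm, hab, ⟨e⟩⟩)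
  have hG := AutOrth.Main.good_minus (F := F) (m := m - 1) (by omega) hab
  refine Cfsg.Agent.H897.T5Sub.SRow.congr e.symm ?_
  have hb := below_congr e hlt
  have hind : ∀ c : MulAut (Cfsg.POmega F (Cfsg.quadFormMinus (m - 1) F a b)), orderOf c = p →
      ∃ y, H903.SylSemi.SemiO F (Cfsg.quadFormMinus (m - 1) F a b) y ∧
      H903.SylSemi.Ind (H152.MeetOmega.proj (Cfsg.quadFormMinus (m - 1) F a b))
        (H152.MeetOmega.rho (Cfsg.quadFormMinus (m - 1) F a b)) y c :=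
    fun c _ => H152.MeetOmega.gamma_minus (by omega) hab c
  rw [← coe_minusForm] at hind hb ⊢
  exact srow_good hG (by simp only [Fintype.card_sum, Fintype.card_fin]; omega) B hp hp5 hpF hb hind

/-! ### the families -/

theorem srowFam_odd {p : ℕ} (hp : p.Prime) (hp5 : 5 ≤ p) (B : SBox.{0} p) :
    SRowFam.{u} p (fun S _ => Cfsg.IsPOmegaOdd S ∧ ¬ Cfsg.IsPOmegaOddChar p S) :=
  fun _ _ _ _ _ h hlt => srow_odd h.1 hp hp5 h.2 B hlt

theorem srowFam_plus {p : ℕ} (hp : p.Prime) (hp5 : 5 ≤ p) (B : SBox.{0} p) :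
    SRowFam.{u} p (fun S _ => Cfsg.IsPOmegaPlus S ∧ ¬ Cfsg.IsPOmegaPlusChar p S) :=
  fun _ _ _ _ _ h hlt => srow_plus h.1 hp hp5 h.2 B hlt

theorem srowFam_minus {p : ℕ} (hp : p.Prime) (hp5 : 5 ≤ p) (B : SBox.{0} p) :
    SRowFam.{u} p (fun S _ => Cfsg.IsPOmegaMinus S ∧ ¬ Cfsg.IsPOmegaMinusChar p S) :=
  fun _ _ _ _ _ h hlt => srow_minus h.1 hp hp5 h.2 B hlt

end Cfsg.Agent.H236.S5O
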